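import Cfsg.Agent.H581.KKL.BOne
import Cfsg.Agent.H613.KS.Props

/-!
# S4577, piece B1 (helper581): the 16-version

* `B1` : `D ≤ N`: a `G`-stable covered block of `N` has defect group `D`;
* `B1'` : the `G`-conjugates of `D` are `N`-conjugate.
-/

set_option autoImplicit false

namespace Cfsg.Agent.H581.KS

open Cfsg Cfsg.Agent.H613.KS
open Cfsg.Agent.H613.KKL (Cov)
open Cfsg.Agent.H581.KKL (defect_of_cov frattini_of_cov)

universe u

/-- B1: `D ≤ N`: a `G`-stable covered block of `N` has defect group `D`. -/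
theorem B1 : Cfsg.Agent.H613.KS.Props.PB1.{u} := by
  intro G _ _ M hM B hB D hD _ N _ b hb hst hcov hDN
  have : Fact (Nat.Prime 2) := ⟨Nat.prime_two⟩
  exact defect_of_cov hM hB hD hb hst hcov hDN

/-- B1': the `G`-conjugates of `D` are `N`-conjugate. -/
theorem B1' {G : Type u} [Group G] [Finite G] {M : Ideal AlgInt} (hM : IsPModular 2 M) {B : Set (IrrCharacter G)}
    (hB : IsPBlock M B) {D : Subgroup G} (hD : IsDefectGroup 2 M B D) (N : Subgroup G) [N.Normal]
    (b : Set (IrrCharacter ↥N)) (hb : IsPBlock M b) (hst : ∀ g : G, StabilizesBlock N b g) (hcov : Cov N b B)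
    (hDN : D ≤ N) (g : G) : ∃ n ∈ N, ∀ d ∈ D, n * (g * d * g⁻¹) * n⁻¹ ∈ D := by
  have : Fact (Nat.Prime 2) := ⟨Nat.prime_two⟩
  exact frattini_of_cov hM hB hD hb hst hcov hDN g

end Cfsg.Agent.H581.KS
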